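import Cfsg.Agent.H63.AnDefs2

/-! Twists of involutions with at least six columns. -/

set_option autoImplicit false
set_option linter.unusedSectionVars false

namespace Cfsg.Agent.H21.AnP6c

open Cfsg.Agent.H63.AN Subgroup
open Cfsg.Agent.H7.AA (d2 d2_apply d2_conj sign_d2)
open Equiv (swap Perm)
open Equiv.Perm (sign)

variable {α : Type} [Fintype α] [DecidableEq α]

/-- `e` lies in one of the two columns -/
def In (p : Perm α) (x y e : α) : Prop := e = x ∨ e = p x ∨ e = y ∨ e = p y

section Kit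

variable {p : Perm α} (hp : ∀ e, p (p e) = e) {x y : α} (h : Two p x y)
include hp h

theorem nd : x ≠ p x ∧ x ≠ y ∧ x ≠ p y ∧ p x ≠ y ∧ p x ≠ p y ∧ y ≠ p y :=
  ⟨h.1.symm, h.2.2.1.symm, fun e => h.2.2.2 (by rw [e, hp]), h.2.2.2.symm,
    fun e => h.2.2.1 (p.injective e).symm, h.2.1.symm⟩

theorem wc_in {e : α} (k : In p x y e) : wc p x y e = p e := by
  have := nd hp h
  have h1 := hp x
  have h2 := hp y
  rcases k with rfl | rfl | rfl | rfl <;> simp only [wc, d2_apply, Equiv.swap_apply_def] <;> grind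

omit hp h in
theorem wc_out {e : α} (k : ¬ In p x y e) : wc p x y e = e := by
  simp only [In, not_or] at k
  simp only [wc, d2_apply, Equiv.swap_apply_def]; grind

omit hp h in
theorem sc_out {e : α} (k : ¬ In p x y e) : sc p x y e = e := by
  simp only [In, not_or] at k
  simp only [sc, d2_apply, Equiv.swap_apply_def]; grind

theorem sc_in : sc p x y x = y ∧ sc p x y y = x ∧ sc p x y (p x) = p y ∧ sc p x y (p y) = p x := by
  have := nd hp h
  simp only [sc, d2_apply, Equiv.swap_apply_def]; grind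

omit h in
theorem in_p {e : α} : In p x y (p e) ↔ In p x y e := by
  have h1 := hp x
  have h2 := hp y
  have h3 := hp e
  simp only [In]; grind

theorem in_mv {e : α} (k : In p x y e) : p e ≠ e := by
  have := nd hp h
  have h1 := hp x
  have h2 := hp y
  rcases k with rfl | rfl | rfl | rfl <;> grind

theorem wc_ne {e : α} : wc p x y e ≠ e ↔ In p x y e :=
  ⟨fun k => by by_contra n; exact k (wc_out n), fun k => by rw [wc_in hp h k]; exact in_mv hp h k⟩

theorem sc_col {e : α} (k : In p x y e) :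
    In p x y (sc p x y e) ∧ sc p x y e ≠ e ∧ sc p x y e ≠ p e := by
  have := nd hp h
  have h1 := hp x
  have h2 := hp y
  have h3 := sc_in hp h
  simp only [In] at k ⊢
  grind

theorem sc_comm : Commute (sc p x y) p := by
  ext e
  simp only [Equiv.Perm.mul_apply]
  by_cases k : In p x y e
  · have h1 := hp x
    have h2 := hp y
    have h3 := sc_in hp h
    rcases k with rfl | rfl | rfl | rfl <;> grind
  · rw [sc_out k, sc_out (mt (in_p hp).1 k)]

theorem wc_comm : Commute (wc p x y) p := by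
  ext e
  simp only [Equiv.Perm.mul_apply]
  by_cases k : In p x y e
  · rw [wc_in hp h k, wc_in hp h ((in_p hp).2 k)]
  · rw [wc_out k, wc_out (mt (in_p hp).1 k)]

theorem sc_CA : sc p x y ∈ CA p :=
  mem_CA.2 ⟨sc_comm hp h, sign_d2 (nd hp h).2.1 (nd hp h).2.2.2.2.1⟩

theorem wc_CA : wc p x y ∈ CA p :=
  mem_CA.2 ⟨wc_comm hp h, sign_d2 (nd hp h).1 (nd hp h).2.2.2.2.2⟩

theorem sc_sq : sc p x y * sc p x y = 1 := by
  have := nd hp h
  ext e; simp only [sc, Equiv.Perm.mul_apply, d2_apply, Equiv.swap_apply_def, Equiv.Perm.one_apply]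
  grind

theorem sc_wc : Commute (sc p x y) (wc p x y) := by
  have := nd hp h
  ext e; simp only [sc, wc, Equiv.Perm.mul_apply, d2_apply, Equiv.swap_apply_def]
  grind

theorem ww_sq {a b : α} (k : Two p a b) : wc p x y * wc p a b * (wc p x y * wc p a b) = 1 := by
  ext e
  simp only [Equiv.Perm.mul_apply, Equiv.Perm.one_apply]
  by_cases k1 : In p x y e <;> by_cases k2 : In p a b e
  · rw [wc_in hp k k2, wc_in hp h ((in_p hp).2 k1), hp, wc_in hp k k2, wc_in hp h ((in_p hp).2 k1), hp]
  · rw [wc_out k2, wc_in hp h k1, wc_out (mt (in_p hp).1 k2), wc_in hp h ((in_p hp).2 k1), hp]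
  · rw [wc_in hp k k2, wc_out (mt (in_p hp).1 k1), wc_in hp k ((in_p hp).2 k2), hp, wc_out k1]
  · rw [wc_out k2, wc_out k1, wc_out k2, wc_out k1]

theorem wc_sq : wc p x y * wc p x y = 1 := by
  ext e
  simp only [Equiv.Perm.mul_apply, Equiv.Perm.one_apply]
  by_cases k1 : In p x y e
  · rw [wc_in hp h k1, wc_in hp h ((in_p hp).2 k1), hp]
  · rw [wc_out k1, wc_out k1]

theorem card_wc : (wc p x y).support.card = 4 := by
  have : (wc p x y).support = {x, p x, y, p y} := by
    ext e
    rw [Equiv.Perm.mem_support, wc_ne hp h]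
    simp [In]
  have k := nd hp h
  rw [this, Finset.card_eq_four]
  exact ⟨_, _, _, _, k.1, k.2.1, k.2.2.1, k.2.2.2.1, k.2.2.2.2.1, k.2.2.2.2.2, rfl⟩

theorem key8 {a b : α} (k : Two p a b) (ka : In p x y a) (kb : In p x y b) :
    sc p a b = sc p x y ∨ sc p a b = sc p x y * wc p x y := by
  have := nd hp h
  have k' := nd hp k
  have h1 := hp x
  have h2 := hp y
  rcases ka with rfl | rfl | rfl | rfl <;> rcases kb with rfl | rfl | rfl | rfl <;>
    first
      | exact Or.inl rfl
      | (exfalso; grind)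
      | (left; ext e; simp only [sc, h1, h2, d2_apply, Equiv.swap_apply_def]; grind)
      | (right; ext e
         simp only [sc, wc, h1, h2, Equiv.Perm.mul_apply, d2_apply, Equiv.swap_apply_def]; grind)

omit hp h in
theorem cm_apply {a : Perm α} (ha : Commute a p) (e : α) : a (p e) = p (a e) :=
  congrArg (· e) ha.eq

omit hp h in
theorem sc_conj {a : Perm α} (ha : Commute a p) : a * sc p x y * a⁻¹ = sc p (a x) (a y) := by
  rw [sc, d2_conj, cm_apply ha, cm_apply ha, sc]

omit hp h in
theorem wc_conj {a : Perm α} (ha : Commute a p) : a * wc p x y * a⁻¹ = wc p (a x) (a y) := by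
  rw [wc, d2_conj, cm_apply ha, cm_apply ha, wc]

omit hp in
theorem two_map {a : Perm α} (ha : Commute a p) : Two p (a x) (a y) := by
  refine ⟨?_, ?_, a.injective.ne h.2.2.1, ?_⟩ <;> rw [← cm_apply ha]
  exacts [a.injective.ne h.1, a.injective.ne h.2.1, a.injective.ne h.2.2.2]

omit hp h in
theorem in_map {a : Perm α} (ha : Commute a p) {e : α} : In p (a x) (a y) (a e) ↔ In p x y e := by
  simp only [In, ← cm_apply ha, a.injective.eq_iff]

omit h in
theorem exists_col (L : Finset α) (hL : 2 * L.card < p.support.card) :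
    ∃ e, p e ≠ e ∧ ∀ f ∈ L, e ≠ f ∧ e ≠ p f := by
  have : (L ∪ L.image p).card < p.support.card :=
    (Finset.card_union_le _ _).trans_lt (by have := Finset.card_image_le (s := L) (f := p); omega)
  obtain ⟨e, he, n⟩ := Finset.exists_mem_notMem_of_card_lt_card this
  refine ⟨e, Equiv.Perm.mem_support.1 he, fun f hf => ⟨fun k => n ?_, fun k => n ?_⟩⟩
  · exact Finset.mem_union_left _ (k ▸ hf)
  · exact Finset.mem_union_right _ (k ▸ Finset.mem_image_of_mem _ hf)

end Kit

theorem sq_apply {p : Perm α} (h : p * p = 1) (e : α) : p (p e) = e := congrArg (· e) h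

section Main

variable {p p' : Perm α} {φ φ' : Perm α → Perm α} {T : ℕ → Prop} (h : Tw p p' φ φ' T)
include h

theorem phi_conj {a b : Perm α} (ha : a ∈ CA p) (hb : b ∈ CA p) :
    φ (a * b * a⁻¹) = φ a * φ b * (φ a)⁻¹ := by
  rw [eq_mul_inv_iff_mul_eq, ← h.1.mul _ (mul_mem (mul_mem ha hb) (inv_mem ha)) _ ha,
    inv_mul_cancel_right, h.1.mul _ ha _ hb]

theorem phi_comm {a b : Perm α} (ha : a ∈ CA p) (hb : b ∈ CA p) (k : Commute a b) :
    Commute (φ a) (φ b) := by
  show _ = _
  rw [← h.1.mul _ ha _ hb, k.eq, h.1.mul _ hb _ ha]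

theorem key {x y x' y' : α} (t : Two p x y) (t' : Two p' x' y') (hw : φ (wc p x y) = wc p' x' y')
    {b : Perm α} (hb : b ∈ CA p') (bw : Commute b (wc p' x' y')) {e : α} (he : ¬ In p' x' y' e) :
    b (φ (sc p x y) (b⁻¹ e)) = φ (sc p x y) e := by
  have hp := sq_apply h.1.p2
  have hp' := sq_apply h.2.p2
  have g := h.2.cm b hb
  have t2 := two_map t g
  have e1 := h.1.cp _ (wc_CA hp t) b hb
  rw [wc_conj g, hw, bw.eq, mul_inv_cancel_right] at e1
  have e2 := h.1.inj _ (mul_mem (wc_CA hp t2) (wc_CA hp t)) (ww_sq hp t2 t) (by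
    rw [h.1.mul _ (wc_CA hp t2) _ (wc_CA hp t), e1, hw, wc_sq hp' t'])
  have e3 : wc p (φ' b x) (φ' b y) = wc p x y := by
    rw [eq_inv_of_mul_eq_one_left e2, inv_eq_of_mul_eq_one_right (wc_sq hp t)]
  have e4 := h.1.cp _ (sc_CA hp t) b hb
  rw [sc_conj g] at e4
  have e5 : (b * φ (sc p x y) * b⁻¹) e = b (φ (sc p x y) (b⁻¹ e)) := rfl
  rw [← e5, ← e4]
  rcases key8 hp t t2 ((wc_ne hp t).1 (e3 ▸ (wc_ne hp t2).2 (Or.inl rfl)))
    ((wc_ne hp t).1 (e3 ▸ (wc_ne hp t2).2 (Or.inr (Or.inr (Or.inl rfl))))) with k | k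
  · rw [k]
  · rw [k, h.1.mul _ (sc_CA hp t) _ (wc_CA hp t), hw, Equiv.Perm.mul_apply, wc_out he]

theorem far {x y x' y' : α} (t : Two p x y) (t' : Two p' x' y') (hw : φ (wc p x y) = wc p' x' y')
    {e f : α} (e1 : p' e ≠ e) (e2 : ¬ In p' x' y' e) (f1 : p' f ≠ f) (f2 : ¬ In p' x' y' f)
    (k : φ (sc p x y) e = e) : φ (sc p x y) f = f := by
  have hp := sq_apply h.1.p2
  have hp' := sq_apply h.2.p2
  by_cases n1 : f = e
  · rw [n1, k]
  by_cases n2 : f = p' e
  · rw [n2, cm_apply (h.1.cm _ (sc_CA hp t)), k]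
  have t2 : Two p' e f := ⟨e1, f1, n1, n2⟩
  have := key h t t' hw (sc_CA hp' t2) (Equiv.Perm.Disjoint.commute fun g => by
    by_cases c : In p' e f g
    · refine Or.inr (wc_out ?_)
      rcases c with rfl | rfl | rfl | rfl
      exacts [e2, mt (in_p hp').1 e2, f2, mt (in_p hp').1 f2]
    · exact Or.inl (sc_out c)) f2
  rw [inv_eq_of_mul_eq_one_right (sc_sq hp' t2), (sc_in hp' t2).2.1, k, (sc_in hp' t2).1] at this
  exact this.symm

theorem fixd {x y x' y' : α} (t : Two p x y) (t' : Two p' x' y') (hw : φ (wc p x y) = wc p' x' y')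
    (c12 : 12 ≤ p'.support.card) {e g : α} (e1 : p' e = e) (k : φ (sc p x y) e ≠ e) (g1 : p' g = g) :
    g = e ∨ g = φ (sc p x y) e := by
  have hp := sq_apply h.1.p2
  have hp' := sq_apply h.2.p2
  by_contra n
  push Not at n
  obtain ⟨f, f1, f2⟩ := exists_col hp' {x', y'} (by have := Finset.card_le_two (a := x') (b := y'); omega)
  have f3 : ¬ In p' x' y' f := by
    have a := f2 x' (by simp)
    have b := f2 y' (by simp)
    rintro (c | c | c | c)
    exacts [a.1 c, a.2 c, b.1 c, b.2 c]
  have c1 : p' (φ (sc p x y) e) = φ (sc p x y) e := by rw [← cm_apply (h.1.cm _ (sc_CA hp t)), e1]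
  have no : ∀ {u}, p' u = u → ¬ In p' x' y' u := fun a c => in_mv hp' t' c a
  have f4 := hp' f
  have := key h t t' hw (b := d2 (φ (sc p x y) e) g f (p' f)) (mem_CA.2 ⟨?_, sign_d2 n.2.symm f1.symm⟩)
    (Equiv.Perm.Disjoint.commute fun u => ?_) (no e1)
  · have a : (d2 (φ (sc p x y) e) g f (p' f))⁻¹ e = e := by
      rw [Equiv.Perm.inv_eq_iff_eq]
      simp only [d2_apply, Equiv.swap_apply_def]; grind
    rw [a] at this
    simp only [d2_apply, Equiv.swap_apply_def] at this
    grind
  · have := d2_conj p' (φ (sc p x y) e) g f (p' f)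
    rw [c1, g1, f4, mul_inv_eq_iff_eq_mul, d2, d2, Equiv.swap_comm (p' f)] at this
    exact this.symm
  · by_cases c : In p' x' y' u
    · left
      have a1 : u ≠ φ (sc p x y) e := fun a => no c1 (a ▸ c)
      have a2 : u ≠ g := fun a => no g1 (a ▸ c)
      have a3 : u ≠ f := fun a => f3 (a ▸ c)
      have a4 : u ≠ p' f := fun a => f3 ((in_p hp').1 (a ▸ c))
      rw [d2_apply, Equiv.swap_apply_of_ne_of_ne a3 a4, Equiv.swap_apply_of_ne_of_ne a1 a2]
    · exact Or.inr (wc_out c)

end Main

theorem p6c : P6cStmt := by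
  rintro α _ _ - p p' φ φ' T h c12 cc - - nat - hT
  have hp := sq_apply h.1.p2
  have hp' := sq_apply h.2.p2
  obtain ⟨x1, m1, -⟩ := exists_col hp ∅ (by rw [Finset.card_empty]; omega)
  obtain ⟨x2, m2, n2⟩ := exists_col hp {x1} (by rw [Finset.card_singleton]; omega)
  obtain ⟨x3, m3, n3⟩ := exists_col hp {x1, x2} (by
    have := Finset.card_le_two (a := x1) (b := x2); omega)
  obtain ⟨x4, m4, n4⟩ := exists_col hp {x1, x2, x3} (by
    have := Finset.card_le_three (a := x1) (b := x2) (c := x3); omega)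
  simp only [Finset.mem_insert, Finset.mem_singleton, forall_eq_or_imp, forall_eq] at n2 n3 n4
  have t12 : Two p x1 x2 := ⟨m1, m2, n2.1, n2.2⟩
  have t13 : Two p x1 x3 := ⟨m1, m3, n3.1.1, n3.1.2⟩
  have t24 : Two p x2 x4 := ⟨m2, m4, n4.2.1.1, n4.2.1.2⟩
  have t34 : Two p x3 x4 := ⟨m3, m4, n4.2.2.1, n4.2.2.2⟩
  have q1 := hp x1
  have q2 := hp x2
  have q3 := hp x3
  have q4 := hp x4
  have dis : ∀ e, In p x1 x2 e → ¬ In p x3 x4 e := by
    intro e a b
    simp only [In] at a b
    grind
  have aC : sc p x1 x3 * sc p x2 x4 ∈ CA p := mul_mem (sc_CA hp t13) (sc_CA hp t24)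
  have a1 : (sc p x1 x3 * sc p x2 x4) x1 = x3 := by
    rw [Equiv.Perm.mul_apply, sc_out (x := x2) (by simp only [In]; grind), (sc_in hp t13).1]
  have a2 : (sc p x1 x3 * sc p x2 x4) x2 = x4 := by
    rw [Equiv.Perm.mul_apply, (sc_in hp t24).1, sc_out (by simp only [In]; grind)]
  generalize sc p x1 x3 * sc p x2 x4 = a at aC a1 a2
  have s34 := phi_conj h aC (sc_CA hp t12)
  have w34 := phi_conj h aC (wc_CA hp t12)
  rw [sc_conj (mem_CA.1 aC).1, a1, a2] at s34
  rw [wc_conj (mem_CA.1 aC).1, a1, a2] at w34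
  obtain ⟨x', y', t', hw, hs⟩ := nat x1 x2 t12
  have hA := h.1.cm a aC
  have t2 := two_map t' hA
  rw [hw, wc_conj hA] at w34
  have dj : ∀ {f g : Perm α}, (∀ e, ¬ In p x1 x2 e → f e = e) → (∀ e, ¬ In p x3 x4 e → g e = e) →
      Commute f g := fun hf hg => Equiv.Perm.Disjoint.commute fun e => by
    by_cases c : In p x1 x2 e
    · exact Or.inr (hg e (dis e c))
    · exact Or.inl (hf e c)
  have css : Commute (sc p x1 x2) (sc p x3 x4) := dj (fun _ => sc_out) fun _ => sc_out
  have cw := phi_comm h (sc_CA hp t12) (wc_CA hp t34) (dj (fun _ => sc_out) fun _ => wc_out)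
  have cs := phi_comm h (sc_CA hp t12) (sc_CA hp t34) css
  have cp := h.1.cm _ (sc_CA hp t12)
  have c2 : φ (sc p x1 x2) * φ (sc p x1 x2) = 1 := by
    have a := h.1.mul 1 (one_mem _) 1 (one_mem _)
    rw [mul_one, left_eq_mul] at a
    rw [← h.1.mul _ (sc_CA hp t12) _ (sc_CA hp t12), sc_sq hp t12, a]
  have hfar := fun e f => @far α _ _ p p' φ φ' T h _ _ _ _ t12 t' hw e f
  have hfix := fun e g => @fixd α _ _ p p' φ φ' T h _ _ _ _ t12 t' hw (cc ▸ c12) e g
  have rC := mul_mem (sc_CA hp t12) (sc_CA hp t34)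
  have hr := h.1.mul _ (sc_CA hp t12) _ (sc_CA hp t34)
  rw [w34] at cw
  rw [s34] at cs hr
  generalize φ (sc p x1 x2) = c at *
  generalize φ a = A at *
  have cin : ∀ e, In p' x' y' e → In p' x' y' (c e) ∧ c e ≠ e ∧ c e ≠ p' e := fun e k => by
    obtain ⟨k1, k2, k3⟩ := sc_col hp' t' k
    rcases hs e (in_mv hp' t' k) with u | u <;> rw [u]
    · exact ⟨k1, k2, k3⟩
    · exact ⟨(in_p hp').2 k1, fun v => k3 (by rw [← v, hp', v]), p'.injective.ne k2⟩
  have cout : ∀ e, p' e ≠ e → ¬ In p' x' y' e → c e = e ∨ c e = p' e := fun e k n => by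
    have := hs e k
    rwa [sc_out n] at this
  have dis' : ∀ e, In p' x' y' e → ¬ In p' (A x') (A y') e := by
    intro e k k'
    have k1 : In p' (A x') (A y') (c e) := by
      rw [← wc_ne hp' t2, ← cm_apply cw]
      exact c.injective.ne ((wc_ne hp' t2).2 k')
    have sub : (wc p' x' y').support ⊆ (wc p' (A x') (A y')).support := fun f hf => by
      rw [Equiv.Perm.mem_support, wc_ne hp' t'] at hf
      rw [Equiv.Perm.mem_support, wc_ne hp' t2]
      have : f = e ∨ f = p' e ∨ f = c e ∨ f = p' (c e) := by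
        have b1 := cin e k
        have b2 := nd hp' t'
        have b3 := hp' x'
        have b4 := hp' y'
        generalize c e = u at b1
        simp only [In] at b1 k hf
        grind
      rcases this with rfl | rfl | rfl | rfl
      exacts [k', (in_p hp').2 k', k1, (in_p hp').2 k1]
    have eq := Finset.eq_of_subset_of_card_le sub (by rw [card_wc hp' t', card_wc hp' t2])
    have eq' : wc p' (A x') (A y') = wc p' x' y' := by
      ext f
      have : In p' x' y' f ↔ In p' (A x') (A y') f := by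
        rw [← wc_ne hp' t', ← wc_ne hp' t2, ← Equiv.Perm.mem_support, eq, Equiv.Perm.mem_support]
      by_cases b : In p' x' y' f
      · rw [wc_in hp' t' b, wc_in hp' t2 (this.1 b)]
      · rw [wc_out b, wc_out (mt this.2 b)]
    have := h.1.inj _ (mul_mem (wc_CA hp t12) (wc_CA hp t34)) (ww_sq hp t12 t34) (by
      rw [h.1.mul _ (wc_CA hp t12) _ (wc_CA hp t34), hw, w34, eq', wc_sq hp' t'])
    have := congrArg (· x1) this
    simp only [Equiv.Perm.mul_apply, Equiv.Perm.one_apply] at this
    rw [wc_out (dis _ (Or.inl rfl)), wc_in hp t12 (Or.inl rfl)] at this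
    exact m1 this
  have sup : (c * (A * c * A⁻¹)).support = (wc p' x' y').support ∪ (wc p' (A x') (A y')).support := by
    ext e
    simp only [Finset.mem_union, Equiv.Perm.mem_support, wc_ne hp' t', wc_ne hp' t2]
    obtain ⟨u, rfl⟩ := A.surjective e
    have pu : p' (A u) = A (p' u) := (cm_apply hA u).symm
    have ev : (c * (A * c * A⁻¹)) (A u) = c (A (c u)) := by simp
    have ev' : (c * (A * c * A⁻¹)) (A u) = A (c (A⁻¹ (c (A u)))) := by rw [cs.eq]; rfl
    have iv : ∀ v, A⁻¹ (A v) = v := fun v => by simp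
    constructor
    · intro k
      by_contra n
      push Not at n
      have n2 := mt (in_map hA).2 n.2
      refine k ?_
      rw [ev]
      by_cases z : p' u = u
      · have z' : p' (A u) = A u := by rw [pu, z]
        have zc : p' (c u) = c u := by rw [← cm_apply cp, z]
        have zc' : p' (A (c u)) = A (c u) := by rw [← cm_apply hA, zc]
        by_cases b : c (A u) = A u
        · by_cases b' : c u = u
          · rw [b', b]
          · rcases hfix u (A u) z b' z' with d | d
            · exact absurd (d ▸ b) b'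
            · rw [d, sq_apply c2] at b
              exact absurd b.symm b'
        · by_cases b' : c u = u
          · rcases hfix (A u) u z' b z with d | d
            · exact absurd (d ▸ b') b
            · rw [d, sq_apply c2] at b'
              exact absurd (b'.trans d.symm) (fun v => b (by rw [← d]; exact v.symm))
          · rcases hfix (A u) (A (c u)) z' b zc' with d | d
            · exact absurd (A.injective d) b'
            · rw [d, sq_apply c2]
      · have z' : p' (A u) ≠ A u := by rw [pu]; exact A.injective.ne z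
        by_cases b : c u = u
        · rw [b]; exact hfar u (A u) z n2 z' n.1 b
        · have b1 := (cout u z n2).resolve_left b
          have b2 := (cout _ z' n.1).resolve_left fun v => b (hfar (A u) u z' n.1 z n2 v)
          rw [b1, ← pu, cm_apply cp, b2, hp']
    · rintro (k | k)
      · have z' := in_mv hp' t' k
        have z : p' u ≠ u := fun v => z' (by rw [pu, v])
        rw [ev]
        rcases cout u z (mt (in_map hA).2 (dis' _ k)) with b | b <;> rw [b]
        · exact (cin _ k).2.1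
        · rw [← pu, cm_apply cp]
          exact fun v => (cin _ k).2.2 (by rw [← v, hp', v])
      · have k' := (in_map hA).1 k
        have z := in_mv hp' t' k'
        have z' : p' (A u) ≠ A u := by rw [pu]; exact A.injective.ne z
        rw [ev']
        rcases cout _ z' fun v => dis' _ v k with b | b <;> rw [b]
        · rw [iv]; exact A.injective.ne (cin _ k').2.1
        · rw [pu, iv, cm_apply cp]
          exact A.injective.ne fun v => (cin _ k').2.2 (by rw [← v, hp', v])
  have c8 : (c * (A * c * A⁻¹)).support.card = 8 := by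
    rw [sup, Finset.card_union_of_disjoint, card_wc hp' t', card_wc hp' t2]
    refine Finset.disjoint_left.2 fun e k k' => ?_
    rw [Equiv.Perm.mem_support] at k k'
    exact dis' e ((wc_ne hp' t').1 k) ((wc_ne hp' t2).1 k')
  have sp : (p * (sc p x1 x2 * sc p x3 x4)).support = p.support := by
    ext e
    simp only [Equiv.Perm.mem_support, Equiv.Perm.mul_apply]
    by_cases k : In p x1 x2 e
    · rw [sc_out (dis e k)]
      exact iff_of_true (fun v => (sc_col hp t12 k).2.2 (by rw [← v, hp, v])) (in_mv hp t12 k)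
    · by_cases k' : In p x3 x4 e
      · rw [sc_out fun v => dis _ v (sc_col hp t34 k').1]
        exact iff_of_true (fun v => (sc_col hp t34 k').2.2 (by rw [← v, hp, v])) (in_mv hp t34 k')
      · rw [sc_out k', sc_out k]
  rcases h.1.cl _ rC (by rw [← sq, css.mul_pow, sq, sq, sc_sq hp t12, sc_sq hp t34, mul_one])
    (by
      rw [hr, Equiv.Perm.sign_mul, Equiv.Perm.sign_mul, Equiv.Perm.sign_mul, Equiv.Perm.sign_inv,
        mul_right_comm, Int.units_mul_self, one_mul, Int.units_mul_self]) with ⟨-, k⟩ | ⟨-, k, -⟩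
  · rw [sp, hr, c8] at k; exact k.1 hT
  · rw [sp] at k; exact absurd hT k

theorem p6c' (_kp : KpStmt) : P6cStmt := p6c

end Cfsg.Agent.H21.AnP6c
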