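import Cfsg.Agent.H22.PSolvHeight
import Cfsg.Agent.H16.StepIso

/-!
# Blocks of `p`-solvable groups with abelian defect groups: the interface

Plan and proofs: `stubs/notes/h21_ds.md`.
-/

set_option autoImplicit false

namespace Cfsg.Agent.H21.DS

open Cfsg Matrix Cfsg.Agent.H22

universe u

/-- there is a perfect isometry from `c` onto `B` -/
def PI (p : ℕ) (M : Ideal AlgInt) {G : Type u} [Group G] {H : Type u} [Group H]
    (c : Set (IrrCharacter H)) (B : Set (IrrCharacter G)) : Prop :=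
  ∃ I ε, IsPerfectIsometry p M c B I ε

/-- rational functions in variables indexed by `A` -/
abbrev Kf (k : Type) [Field k] (A : Type u) : Type u := FractionRing (MvPolynomial A k)

/-- square matrices -/
abbrev Mat (n : ℕ) (R : Type*) := Matrix (Fin n) (Fin n) R

/-- the generic element of the augmentation ideal -/
noncomputable def Th {k : Type} [Field k] {A : Type u} [Group A] [Fintype A] {n : ℕ}
    (ρ : A →* Mat n k) : Mat n (Kf k A) :=
  ∑ g, algebraMap (MvPolynomial A k) (Kf k A) (MvPolynomial.X g) •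
    ((ρ g).map (algebraMap k (Kf k A)) - 1)

/-- the matrix algebra is a summand of a permutation module, with scalars as the fixed part -/
structure Frame {k : Type} [Field k] {A : Type u} [Group A] {n : ℕ} (ρ : A →* Mat n k)
    {X : Type u} [Fintype X] [MulAction A X] (r s : X → Mat n k) : Prop where
  exp : ∀ T : Mat n k, ∑ x, (T * s x).trace • r x = T
  hr : ∀ a x, r (a • x) = ρ a * r x * ρ a⁻¹
  hs : ∀ a x, s (a • x) = ρ a * s x * ρ a⁻¹
  fix : ∀ x, (∀ a : A, a • x = x) → ∃ c : k, r x = c • 1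

/-- the trace form on the centraliser of `Θ` has rank one -/
def RkOne {K : Type u} [Field K] {n : ℕ} (Θ : Mat n K) : Prop :=
  ∀ E E' : Mat n K, Commute E Θ → Commute E' Θ → (n : K) * (E * E').trace = E.trace * E'.trace

/-- the filtration of the kernel of `Θ` by the images of the powers of `Θ` -/
def Fl {K : Type u} [Field K] {n : ℕ} (Θ : Mat n K) (a : ℕ) : Submodule K (Fin n → K) :=
  LinearMap.ker (toLin' Θ) ⊓ LinearMap.range (toLin' (Θ ^ a))

/-- the orthogonality relations for the matrix coefficients -/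
def Orth {G : Type u} [Group G] [Fintype G] {R : Type} [CommRing R] {d : ℕ}
    (ρ : G →* Mat d R) : Prop :=
  ∀ i j k l, (d : R) * ∑ g, ρ g⁻¹ i j * ρ g k l =
    if i = l ∧ j = k then (Fintype.card G : R) else 0

/-- DER: the generic element on a permutation module. -/
def DerStmt : Prop := ∀ (K : Type u) [Field K] (p : ℕ) [Fact p.Prime] [CharP K p] (A : Type u)
  [CommGroup A] [Fintype A], IsPGroup p A → ∀ (X : Type u) [Fintype X] [MulAction A X]
  (y : A → K), (∀ τ : A →* Multiplicative (ZMod p), τ ≠ 1 →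
    ∑ g, y g * ZMod.castHom dvd_rfl K (τ g).toAdd ≠ 0) →
  ∀ f : X → K, (∀ x, ∑ g, y g * (f (g⁻¹ • x) - f x) = 0) →
    ∃ f' : X → K, ∀ x, (¬ ∀ g : A, g • x = x) → f x = ∑ g, y g * (f' (g⁻¹ • x) - f' x)

/-- KER: the centraliser of the generic element. -/
def KerStmt : Prop := ∀ (k : Type) [Field k] (p : ℕ) [Fact p.Prime] [CharP k p] (A : Type u)
  [CommGroup A] [Fintype A], IsPGroup p A → ∀ (n : ℕ) (ρ : A →* Mat n k) (X : Type u) [Fintype X]
  [MulAction A X] (r s : X → Mat n k), Frame ρ r s → RkOne (Th ρ)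

/-- JORD: a Jordan block that occurs exactly once. -/
def JordStmt : Prop := ∀ (K : Type u) [Field K] (n : ℕ) (Θ : Mat n K), IsNilpotent Θ →
  (n : K) ≠ 0 → RkOne Θ → ∃ a, ∃ v ∈ Fl Θ a, v ∉ Fl Θ (a + 1) ∧
    ∀ v' ∈ Fl Θ a, ∃ c : K, v' - c • v ∈ Fl Θ (a + 1)

/-- GCD: cocycles with values in rational functions. -/
def GcdStmt : Prop := ∀ (k : Type) [Field k] (A : Type u) [Finite A] (Y : Type u) [Group Y] [Finite Y]
  (σ : Y →* (Kf k A ≃ₐ[k] Kf k A)),
  (∀ y (f : MvPolynomial A k), ∃ f' : MvPolynomial A k,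
    σ y (algebraMap _ (Kf k A) f) = algebraMap _ (Kf k A) f') →
  ∀ t : Y → Kf k A, (∀ y, t y ≠ 0) → (∀ y y', t (y * y') = t y * σ y (t y')) →
    ∃ (w : Kf k A) (μ : Y →* kˣ), w ≠ 0 ∧ ∀ y, t y * σ y w = algebraMap k (Kf k A) (μ y) * w

/-- LINE: a linear character from an endo-permutation module. -/
def LineStmt : Prop := ∀ (k : Type) [Field k] (p : ℕ) [Fact p.Prime] [CharP k p] (A : Type u)
  [CommGroup A] [Fintype A], IsPGroup p A → ∀ (Y : Type u) [Group Y] [Finite Y]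
  (α : Y →* MulAut A) (U : Type) [AddCommGroup U] [Module k U] [FiniteDimensional k U]
  (ρ : A →* Module.End k U) (σ : Y →* Module.End k U), (∀ y a, σ y * ρ a = ρ (α y a) * σ y) →
  (Module.finrank k U : k) ≠ 0 → ∀ (X : Type u) [Fintype X] [MulAction A X]
  (r : X → Module.End k U) (i : Module.End k U →ₗ[k] (X → k)), (∀ T, ∑ x, i T x • r x = T) →
  (∀ a x, r (a • x) = ρ a * r x * ρ a⁻¹) → (∀ a T x, i (ρ a * T * ρ a⁻¹) (a • x) = i T x) →
  (∀ x, (∀ a : A, a • x = x) → ∃ c : k, r x = c • 1) →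
    ∃ μ : Y →* kˣ, ∀ z, α z = 1 → ∀ c : k, σ z = c • 1 → (μ z : k) = c

/-- MULT: the multiplicity module. -/
def MultStmt : Prop := ∀ (k : Type) [Field k] (p : ℕ) [Fact p.Prime] [CharP k p] (Γ : Type u)
  [Group Γ] [Finite Γ] (N A : Subgroup Γ) [N.Normal] [Fintype N], IsPGroup p A →
  (∀ x ∈ A, ∀ y ∈ A, x * y = y * x) → ∀ (Y C : Type u) [Group Y] [Finite Y] [Group C] [Fintype C]
  (π : Y →* Γ) (s : C →* Y), (∀ y, π y ∈ Subgroup.normalizer (A : Set Γ)) →
  (∀ c, π (s c) ∈ N ⊓ Subgroup.centralizer (A : Set Γ)) →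
  (∀ x ∈ N ⊓ Subgroup.centralizer (A : Set Γ), ∃ c, π (s c) = x) →
  (∀ y c, ∃ c', y * s c * y⁻¹ = s c') → ∀ (d e : ℕ) (ρ : Γ →* Mat d k) (τ : Y →* Mat e k),
  Orth (ρ.comp N.subtype) → Orth (τ.comp s) → (Fintype.card N : k) ≠ 0 →
  (Fintype.card C : k) ≠ 0 → ∑ c, (ρ (π (s c))).trace * (τ (s c⁻¹)).trace ≠ 0 →
    ∃ μ : Y →* kˣ, (∀ c, μ (s c) = 1) ∧ ∀ (z : Y) (a b : k),
      π z ∈ Subgroup.centralizer (A : Set Γ) → ρ (π z) = a • 1 → τ z = b • 1 → μ z * b = a

/-- EXT: the correspondent of an extendible character extends. -/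
def ExtStmt : Prop := ∀ (p : ℕ) [Fact p.Prime] (M : Ideal AlgInt), IsPModular p M →
  ∀ (Γ : Type u) [Group Γ] [Finite Γ] (N A H Z : Subgroup Γ) [N.Normal], ¬ p ∣ Nat.card N →
  IsPGroup p A → (∀ x ∈ A, ∀ y ∈ A, x * y = y * x) → H ≤ Subgroup.normalizer (A : Set Γ) →
  N ⊓ H = N ⊓ Subgroup.centralizer (A : Set Γ) → Z ≤ Subgroup.center Γ → ¬ p ∣ Nat.card Z →
  ∀ χ : IrrCharacter Γ, IsIrrCharacter N (fun n : N => χ.1 n) →
  ∀ [Fintype (N.subgroupOf H)] (φ : IrrCharacter (N.subgroupOf H)),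
  (∀ h : H, cjIrr (N.subgroupOf H) h φ = φ) → ∀ m : ℕ, ¬ p ∣ m →
  classInner (fun c : N.subgroupOf H => χ.1 (c : H)) φ.1 = m →
    ∃ ψ : IrrCharacter H, (∀ c : N.subgroupOf H, ψ.1 c = φ.1 c) ∧
      ∀ z : H, (z : Γ) ∈ Z → ψ.1 z * χ.1 1 = ψ.1 1 * χ.1 z

/-- CEXT: the central extension of a character triple. -/
def CextStmt : Prop := ∀ (G : Type u) [Group G] [Finite G] (N : Subgroup G) [N.Normal]
  (θ : IrrCharacter N), (∀ g : G, cjIrr N g θ = θ) →
    ∃ (Γ : Type u) (_ : Group Γ) (_ : Finite Γ) (π : Γ →* G) (s : N →* Γ) (χ : IrrCharacter Γ),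
      Function.Surjective π ∧ π.ker ≤ Subgroup.center Γ ∧ (∀ n, π (s n) = n) ∧
      (∀ (x : Γ) (n : N), x * s n * x⁻¹ = s (MulAut.conjNormal (π x) n)) ∧
      (∀ n, χ.1 (s n) = θ.1 n) ∧ ∀ p : ℕ, p.Prime → p ∣ Nat.card π.ker → p ∣ Nat.card N

/-- PIK: the calculus of perfect isometries. -/
structure PikStmt : Prop where
  symm : ∀ (p : ℕ) (M : Ideal AlgInt) {G H : Type u} [Group G] [Group H] [Finite G] [Finite H]
    {c : Set (IrrCharacter H)} {B : Set (IrrCharacter G)}, PI p M c B → PI p M B c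
  trans : ∀ (p : ℕ) [Fact p.Prime] (M : Ideal AlgInt), IsPModular p M →
    ∀ {G H L : Type u} [Group G] [Group H] [Group L] [Finite G] [Finite H] [Finite L]
    {d : Set (IrrCharacter L)} {c : Set (IrrCharacter H)} {B : Set (IrrCharacter G)},
      PI p M d c → PI p M c B → PI p M d B
  iso : ∀ (p : ℕ) [Fact p.Prime] (M : Ideal AlgInt), IsPModular p M →
    ∀ {G H : Type u} [Group G] [Group H] [Finite G] [Finite H] (e : G ≃* H)
    {B : Set (IrrCharacter G)}, H17.LamClosed M B → PI p M B (irrMap e '' B)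
  ind : ∀ (p : ℕ) [Fact p.Prime] (M : Ideal AlgInt), IsPModular p M →
    ∀ {G : Type u} [Group G] [Fintype G] {T : Subgroup G} {c : Set (IrrCharacter T)},
      H17.LamClosed M c → IndInj T c → PI p M c (indSet T c)
  rank : ∀ (p : ℕ) (M : Ideal AlgInt) {G H : Type u} [Group G] [Group H] [Finite G] [Finite H]
    {c : Set (IrrCharacter H)} {B : Set (IrrCharacter G)}, PI p M c B →
      Nat.card c = Nat.card B ∧ blockRank p c = blockRank p B

/-- TRI: multiplication by an extension. -/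
def TriStmt : Prop := ∀ (p : ℕ) [Fact p.Prime] (M : Ideal AlgInt), IsPModular p M →
  ∀ (G Γ Q : Type u) [Group G] [Group Γ] [Group Q] [Finite Γ] (π : Γ →* G) (q : Γ →* Q),
  Function.Surjective π → Function.Surjective q → π.ker ≤ Subgroup.center Γ →
  ¬ p ∣ Nat.card π.ker → ¬ p ∣ Nat.card q.ker → ∀ χ : IrrCharacter Γ,
  IsIrrCharacter q.ker (fun n : q.ker => χ.1 n) →
    PI p M {β : IrrCharacter Q | ∀ z ∈ π.ker, β.1 (q z) * χ.1 z = β.1 1 * χ.1 1}
      {ξ : IrrCharacter G | Over q.ker (fun x => ξ.1 (π x)) (fun n : q.ker => χ.1 n)}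

/-- CORE: characters above a pair of Glauberman correspondents. -/
def CoreStmt : Prop := ∀ (p : ℕ) [Fact p.Prime] (M : Ideal AlgInt), IsPModular p M →
  ∀ (G : Type u) [Group G] [Finite G] (N P : Subgroup G) [N.Normal], ¬ p ∣ Nat.card N →
  IsPGroup p P → (∀ x ∈ P, ∀ y ∈ P, x * y = y * x) → N ⊔ H18.Nz P = ⊤ →
  ∀ θ : IrrCharacter N, (∀ g : G, cjIrr N g θ = θ) →
  ∀ [Fintype (N.subgroupOf (H18.Nz P))] (φ : IrrCharacter (N.subgroupOf (H18.Nz P))),
  (∀ h : H18.Nz P, cjIrr (N.subgroupOf (H18.Nz P)) h φ = φ) → ∀ m : ℕ, ¬ p ∣ m →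
  classInner (fun c : N.subgroupOf (H18.Nz P) => θ.1 ⟨c.1.1, c.2⟩) φ.1 = m →
    PI p M (above (N.subgroupOf (H18.Nz P)) {φ}) (above N {θ})

/-- RED: the perfect isometry with the Brauer correspondent. -/
def RedStmt : Prop := ∀ (p : ℕ) [Fact p.Prime] (M : Ideal AlgInt), IsPModular p M →
  ∀ (G : Type u) [Group G] [Finite G], IsPSolvable p G → ∀ B : Set (IrrCharacter G),
  IsPBlock M B → ∀ P : Subgroup G, IsDefectGroup p M B P → (∀ x ∈ P, ∀ y ∈ P, x * y = y * x) →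
  ∀ c : Set (IrrCharacter (H18.Nz P)), IsDefectGroup p M c (P.subgroupOf (H18.Nz P)) →
  IsInducedBlock M (H18.Nz P) c B → PI p M c B

end Cfsg.Agent.H21.DS
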