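import Mathlib
import Cfsg.Agent.H80.F23Kit

/-!
# An isometry of order `23` acts trivially on a small `q`-part of a discriminant group
-/

set_option autoImplicit false

namespace Cfsg.Agent.H21.F23Eta

open Module Polynomial Cfsg.Agent.H80.F23

/-- The Gaussian period. -/
def eta {R : Type*} [Ring R] (x : R) : R :=
  x ^ 1 + x ^ 2 + x ^ 3 + x ^ 4 + x ^ 6 + x ^ 8 + x ^ 9 + x ^ 12 + x ^ 13 + x ^ 16 + x ^ 18

theorem eta_sq {R : Type*} [Ring R] {x : R} (h : x ^ 23 = 1) (h0 : ∑ i ∈ Finset.range 23, x ^ i = 0) (a : ℤ) :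
    (eta x - a) * (eta x - (-1 - a : ℤ)) = (-(a ^ 2 + a + 6) : ℤ) := by
  have key : (eta (X : ℤ[X]) - (a : ℤ[X])) * (eta X - ((-1 - a : ℤ) : ℤ[X])) = ((-(a ^ 2 + a + 6) : ℤ) : ℤ[X]) +
      6 * (∑ i ∈ Finset.range 23, X ^ i) + (5 * X ^ 1 + 4 * X ^ 2 + 3 * X ^ 3 + 2 * X ^ 4 + 2 * X ^ 5 +
      2 * X ^ 6 + 2 * X ^ 7 + 2 * X ^ 8 + X ^ 9 + 2 * X ^ 11 + X ^ 13) * (X ^ 23 - 1) := by
    simp only [eta, Finset.sum_range_succ, Finset.sum_range_zero]
    push_cast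
    ring
  have h1 := congrArg (aeval x) key
  simp only [eta, map_add, map_sub, map_mul, map_pow, map_sum, aeval_X, map_intCast, map_one, h, h0,
    sub_self, mul_zero, add_zero] at h1
  exact h1

theorem card_inv {A : Type*} [AddCommGroup A] [Finite A] {σ : End ℤ A} (h : σ ^ 23 = 1) (U : Submodule ℤ A)
    (hU : ∀ x ∈ U, σ x ∈ U) (hf : ∀ x ∈ U, σ x = x → x = 0) : Nat.card U % 23 = 1 := by
  classical
  have := Fintype.ofFinite U
  have : Fact (Nat.Prime 23) := ⟨by norm_num⟩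
  let f : Function.End U := fun x => ⟨σ x, hU _ x.2⟩
  have h1 : ∀ (i : ℕ) (x : U), ((f ^ i) x : A) = (σ ^ i) x := fun i x => by
    induction i with
    | zero => rfl
    | succ i ih => rw [pow_succ', pow_succ', End.mul_apply, ← ih]; rfl
  have h2 := Equiv.Perm.card_fixedPoints_modEq (f := f) (p := 23) (n := 1)
    (funext fun x => Subtype.ext (by rw [pow_one, h1, h]; rfl))
  have h3 : f.fixedPoints = {0} := Set.eq_singleton_iff_unique_mem.2
    ⟨Subtype.ext (map_zero σ), fun x hx => Subtype.ext (hf _ x.2 (congrArg Subtype.val hx))⟩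
  rw [← Nat.card_eq_fintype_card, ← Nat.card_eq_fintype_card, h3, Nat.card_unique (α := ({0} : Set U))] at h2
  exact h2

theorem dich {A : Type*} [AddCommGroup A] [Finite A] {σ : End ℤ A} {q : ℕ} (hq : q.Prime) (hq' : q < 23)
    (h : σ ^ 23 = 1) (hA : ∀ x : A, (q : ℤ) • x = 0) (hc : Nat.card A ≤ q ^ 11) :
    σ = 1 ∨ (∑ i ∈ Finset.range 23, σ ^ i = 0 ∧ ∃ a : ℤ, (q : ℤ) ∣ a ^ 2 + a + 6 ∧ eta σ = a) := by
  have : Fact q.Prime := ⟨hq⟩
  obtain ⟨n, hn⟩ : ∃ n, Nat.card A = q ^ n :=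
    (IsPGroup.iff_card (G := Multiplicative A)).1 fun x => ⟨1, by
      rw [pow_one, ← ofAdd_toAdd x, ← ofAdd_nsmul, ← natCast_zsmul, hA, ofAdd_zero]⟩
  have hn' : n ≤ 11 := (Nat.pow_le_pow_iff_right hq.one_lt).1 (hn ▸ hc)
  have hN : (∑ i ∈ Finset.range 23, σ ^ i) * (σ - 1) = 0 := by rw [geom_sum_mul, h, sub_self]
  have hfix : ∀ x, (∑ i ∈ Finset.range 23, σ ^ i) x = 0 → σ x = x → x = 0 := fun x h1 h2 => by
    have h3 : ∀ i : ℕ, (σ ^ i) x = x := fun i => by rw [End.pow_apply, Function.iterate_fixed h2]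
    simp only [LinearMap.sum_apply, h3, Finset.sum_const, Finset.card_range] at h1
    obtain ⟨u, v, huv⟩ : IsCoprime (q : ℤ) (23 : ℕ) :=
      Nat.isCoprime_iff_coprime.2 ((Nat.coprime_primes hq (by norm_num)).2 hq'.ne)
    rw [← one_zsmul x, ← huv, add_smul, mul_smul, mul_smul, hA, natCast_zsmul, h1, smul_zero, smul_zero,
      add_zero]
  have hsub : ∀ U : Submodule ℤ A, (∀ x ∈ U, σ x ∈ U) → (∀ x ∈ U, (∑ i ∈ Finset.range 23, σ ^ i) x = 0) →
      U = ⊥ ∨ (U = ⊤ ∧ q ^ 11 % 23 = 1) := fun U h1 h2 => by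
    have h3 := card_inv h U h1 fun x hx => hfix x (h2 x hx)
    obtain ⟨k, hk, e⟩ := (Nat.dvd_prime_pow hq).1 (hn ▸ U.toAddSubgroup.card_addSubgroup_dvd_card)
    have e' : Nat.card U = q ^ k := e
    have h4 : ∀ q < 23, q.Prime → ∀ k ≤ 11, q ^ k % 23 = 1 → k = 0 ∨ k = 11 := by decide +kernel
    rw [e'] at h3
    rcases h4 q hq' hq k (hk.trans hn') h3 with rfl | rfl
    · exact Or.inl (Submodule.toAddSubgroup_injective (AddSubgroup.eq_bot_of_card_eq _ e))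
    · exact Or.inr ⟨Submodule.toAddSubgroup_injective
        (AddSubgroup.eq_top_of_card_eq _ (by rw [e, hn, le_antisymm hn' hk])), h3⟩
  have hcm : ∀ p : ℤ[X], Commute σ (aeval σ p) := fun p => by
    simpa using (Commute.all X p).map (aeval σ : ℤ[X] →ₐ[ℤ] End ℤ A)
  rcases hsub (LinearMap.range (σ - 1)) (by
      rintro _ ⟨x, rfl⟩
      exact ⟨σ x, by simp⟩) (by
      rintro _ ⟨x, rfl⟩
      exact DFunLike.congr_fun hN x) with h1 | ⟨h1, h2⟩
  · exact Or.inl (sub_eq_zero.1 (LinearMap.range_eq_bot.1 h1))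
  have h0 : ∑ i ∈ Finset.range 23, σ ^ i = 0 := LinearMap.ext fun x => by
    obtain ⟨y, rfl⟩ := LinearMap.range_eq_top.1 h1 x
    exact DFunLike.congr_fun hN y
  refine Or.inr ⟨h0, ?_⟩
  have h4 : ∀ q < 23, q.Prime → q ^ 11 % 23 = 1 → ∃ a < 23, q ∣ a ^ 2 + a + 6 := by decide +kernel
  obtain ⟨a, -, ha⟩ := h4 q hq' hq h2
  have ha' : (q : ℤ) ∣ (a : ℤ) ^ 2 + a + 6 := by exact_mod_cast ha
  have h5 := eta_sq h h0 a
  have h6 : ((-((a : ℤ) ^ 2 + a + 6) : ℤ) : End ℤ A) = 0 := LinearMap.ext fun x => by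
    obtain ⟨c, e⟩ := ha'
    rw [e, End.intCast_apply, neg_smul, mul_smul, hA, neg_zero, LinearMap.zero_apply]
  rcases hsub (LinearMap.ker (eta σ - ((a : ℤ) : End ℤ A))) (fun x hx => by
      have h7 := (hcm (eta X - ((a : ℤ) : ℤ[X]))).eq
      simp only [eta, map_add, map_sub, map_pow, aeval_X, map_intCast] at h7
      rw [LinearMap.mem_ker, ← End.mul_apply, eta, ← h7, End.mul_apply]
      exact (congrArg σ hx).trans (map_zero σ)) (fun x _ => by rw [h0, LinearMap.zero_apply]) with h7 | ⟨h7, -⟩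
  · refine ⟨-1 - a, by convert ha' using 1; ring, sub_eq_zero.1 (LinearMap.ext fun x => ?_)⟩
    refine (LinearMap.ker_eq_bot'.1 h7) _ ?_
    rw [← End.mul_apply, h5, h6, LinearMap.zero_apply]
  · exact ⟨a, ha', sub_eq_zero.1 (LinearMap.ker_eq_top.1 h7)⟩

theorem eta_adj {W : Type*} [AddCommGroup W] [Module ℚ W] {B : LinearMap.BilinForm ℚ W} {g : End ℚ W}
    (h : Iso23 B g) (y z : W) : B (eta g y) z = B y (nm g z) - B y z - B y (eta g z) := by
  have h1 : ∀ i j : ℕ, i + j = 23 → B ((g ^ i) y) z = B y ((g ^ j) z) := fun i j e => by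
    rw [← h.iso_pow i y, ← End.mul_apply, ← pow_add, e, h.pow, End.one_apply]
  simp only [eta, nm_apply, LinearMap.add_apply, map_add, Finset.sum_range_succ, Finset.sum_range_zero,
    h1 1 22 rfl, h1 2 21 rfl, h1 3 20 rfl, h1 4 19 rfl, h1 6 17 rfl, h1 8 15 rfl, h1 9 14 rfl, h1 12 11 rfl,
    h1 13 10 rfl, h1 16 7 rfl, h1 18 5 rfl, pow_zero, End.one_apply, map_zero]
  ring

theorem etaStmt : EtaStmt := by
  intro W _ _ B g L T q hB hg hq hq' hLT hTL hqT hgL hgT hnd h0 hc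
  let gT : End ℤ T := (g.restrictScalars ℤ).restrict hgT
  let σ : End ℤ (T ⧸ L.submoduleOf T) := Submodule.mapQ _ _ gT fun x hx => hgL _ hx
  have h1 : ∀ (i : ℕ) (y : T), (σ ^ i) (Submodule.Quotient.mk y) =
      Submodule.Quotient.mk ⟨(g ^ i) y, pow_mem_of hgT i y.2⟩ := fun i y => by
    induction i with
    | zero => rfl
    | succ i ih =>
      rw [pow_succ', End.mul_apply, ih]
      exact congrArg _ (Subtype.ext (DFunLike.congr_fun (pow_succ' g i) y.1).symm)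
  have hcard : Nat.card (T ⧸ L.submoduleOf T) = L.toAddSubgroup.relIndex T.toAddSubgroup := rfl
  have : Finite (T ⧸ L.submoduleOf T) := Nat.finite_of_card_ne_zero (hcard ▸ h0)
  rcases dich (σ := σ) hq hq' (LinearMap.ext fun x => by
      obtain ⟨y, rfl⟩ := Submodule.Quotient.mk_surjective _ x
      rw [h1]
      exact congrArg _ (Subtype.ext (DFunLike.congr_fun hg.pow y.1))) (fun x => by
      obtain ⟨y, rfl⟩ := Submodule.Quotient.mk_surjective _ x
      rw [← Submodule.Quotient.mk_smul, Submodule.Quotient.mk_eq_zero]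
      exact hqT _ y.2) (hcard ▸ hc) with h2 | ⟨h2, a, h3, h4⟩
  · intro y hy
    exact (Submodule.Quotient.eq (L.submoduleOf T)).1
      (DFunLike.congr_fun h2 (Submodule.Quotient.mk (⟨y, hy⟩ : T)))
  have h5 : ∀ y ∈ T, nm g y ∈ L := fun y hy => by
    have e := DFunLike.congr_fun h2 (Submodule.Quotient.mk (⟨y, hy⟩ : T))
    simp only [LinearMap.sum_apply, h1, LinearMap.zero_apply] at e
    simp only [← Submodule.mkQ_apply, ← map_sum] at e
    have e' := (Submodule.Quotient.mk_eq_zero _).1 e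
    rw [nm_apply]
    simpa [Submodule.submoduleOf] using e'
  have h6 : ∀ y ∈ T, eta g y - a • y ∈ L := fun y hy => by
    have e := DFunLike.congr_fun h4 (Submodule.Quotient.mk (⟨y, hy⟩ : T))
    simp only [eta, LinearMap.add_apply, h1, End.intCast_apply, ← Submodule.Quotient.mk_add,
      ← Submodule.Quotient.mk_smul] at e
    exact (Submodule.Quotient.eq (L.submoduleOf T)).1 e
  have h7 : T ≤ L := fun y hy => hnd ⟨hy, mem_dual.2 fun z hz => by
    obtain ⟨k1, e1⟩ := mem_dual.1 (hTL hz) _ (h6 y hy)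
    obtain ⟨k2, e2⟩ := mem_dual.1 (hTL hy) _ (h6 z hz)
    obtain ⟨k3, e3⟩ := mem_dual.1 (hTL hy) _ (h5 z hz)
    obtain ⟨k4, e4⟩ := mem_dual.1 (hTL hy) _ (hqT z hz)
    have e5 := eta_adj hg y z
    rw [map_sub, map_zsmul, zsmul_eq_mul, hB.symm z, hB.symm z] at e1
    rw [map_sub, map_zsmul, zsmul_eq_mul] at e2
    rw [map_zsmul, zsmul_eq_mul] at e4
    obtain ⟨c, hc⟩ := h3
    obtain ⟨u, v, huv⟩ : IsCoprime (q : ℤ) (23 : ℕ) :=
      Nat.isCoprime_iff_coprime.2 ((Nat.coprime_primes hq (by norm_num)).2 hq'.ne)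
    have hc' : (a : ℚ) ^ 2 + a + 6 = (q : ℤ) * c := by exact_mod_cast hc
    have huv' : (u : ℚ) * (q : ℤ) + v * 23 = 1 := by exact_mod_cast huv
    refine ⟨(u + 4 * v * c) * k4 - v * (2 * a + 1) * (k3 - k1 - k2), ?_⟩
    push_cast at *
    linear_combination (-(B y z)) * huv' + (u + 4 * v * c) * e4 + 4 * v * (B y z) * hc' -
      v * (2 * a + 1) * (e3 - e1 - e2 + e5)⟩
  exact fun y hy => h7 (sub_mem (hgT y hy) hy)

end Cfsg.Agent.H21.F23Eta
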