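import Cfsg.Agent.H17.LPDefs
import Cfsg.Agent.H2.Gaschutz
import Cfsg.Agent.S0242

/-! Project LP, piece GA: the extension splits over a Sylow subgroup, hence splits. -/

set_option autoImplicit false

namespace Cfsg.Agent.H21.LpGa

open Cfsg Subgroup Matrix Cfsg.Agent.H17.LP
open scoped Pointwise

universe u

theorem card_sl : Nat.card SL5 = 9999360 := by
  have := S0242.result (F := ZMod 2) (q := 2) (by simp) 5 (by norm_num)
  generalize Nat.card (Matrix.SpecialLinearGroup (Fin 5) (ZMod 2)) = n at this ⊢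
  revert this
  simp [Fin.prod_univ_succ]

def lm (x : Fin 6 → F) : M5 :=
  !![1, 0, 0, x 0, x 1; 0, 1, 0, x 2, x 3; 0, 0, 1, x 4, x 5; 0, 0, 0, 1, 0; 0, 0, 0, 0, 1]

theorem lm_sq : ∀ x, lm x * lm x = 1 := by decide +kernel

def lg (x : Fin 6 → F) : SL5 := ⟨lm x, by
  have h := congrArg det (lm_sq x)
  rw [det_mul, det_one] at h
  have : ∀ y : F, y * y = 1 → y = 1 := by decide
  exact this _ h⟩

theorem lg_mem : ∀ x, lv (lg x) ∈ L0 := by unfold L0; decide +kernel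

theorem lg_inj : Function.Injective lg := fun x y h => by
  have k := congrArg Subtype.val h
  have e : ∀ i j, lm x i j = lm y i j := fun i j => congrFun (congrFun k i) j
  funext i
  fin_cases i
  exacts [e 0 3, e 0 4, e 1 3, e 1 4, e 2 3, e 2 4]

theorem eq_lg {g : SL5} (h : lv g ∈ L0) : ∃ x, g = lg x := by
  refine ⟨![g.1 0 3, g.1 0 4, g.1 1 3, g.1 1 4, g.1 2 3, g.1 2 4], Subtype.ext ?_⟩
  have k : ∀ i j : Fin 5, _ → g.1 i j = (1 : M5) i j := (mem_Pat.1 h).2
  ext i j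
  fin_cases i <;> fin_cases j <;> first | rfl | exact k _ _ (by decide)

abbrev Ix := Fin 4 × Fin 2 × Fin 2

def wd {G : Type*} [Group G] (r s t : G) (w : Ix) : G := r ^ w.1.1 * s ^ w.2.1.1 * t ^ w.2.2.1

def dg (w : Ix) : SL5 := wd (X 1 2 * X 2 3) (X 1 2) (X 4 5) w

theorem dg_inj : ∀ (w w' : Ix), lv (dg w' * (dg w)⁻¹) ∈ L0 → w = w' := by
  have : ∀ (w w' : Ix), ∃ v : Ix, dg v * dg w = dg w' ∧ (lv (dg v) ∈ L0 → w = w') := by
    unfold L0; decide +kernel
  intro w w' h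
  obtain ⟨v, h1, h2⟩ := this w w'
  rw [← h1, mul_inv_cancel_right] at h
  exact h2 h

theorem nf {G : Type*} [Group G] {a b t : G} (ha : a * a = 1) (hb : b * b = 1) (ht : t * t = 1)
    (hab : (a * b) ^ 4 = 1) (hat : a * t = t * a) (hbt : b * t = t * b) {d : G}
    (hd : d ∈ closure ({a, b, t} : Set G)) : ∃ w, d = wd (a * b) a t w := by
  have key : ∃ j i e : ℕ, d = (a * b) ^ j * a ^ i * t ^ e := by
    have ca : ∀ y : G, (∃ j i e : ℕ, y = (a * b) ^ j * a ^ i * t ^ e) →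
        ∃ j i e : ℕ, a * y = (a * b) ^ j * a ^ i * t ^ e := by
      rintro _ ⟨j, i, e, rfl⟩
      have h1 : a * (a * b) * a⁻¹ = (a * b) ^ 3 := by
        have : (a * b) ^ 3 = (a * b)⁻¹ := eq_inv_of_mul_eq_one_left (by rw [← pow_succ, hab])
        rw [this, ← mul_assoc, ha, one_mul, _root_.mul_inv_rev, inv_eq_of_mul_eq_one_right hb]
      refine ⟨3 * j, i + 1, e, ?_⟩
      rw [pow_mul, ← h1, conj_pow, pow_succ']
      group
    have cb : ∀ y : G, (∃ j i e : ℕ, y = (a * b) ^ j * a ^ i * t ^ e) →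
        ∃ j i e : ℕ, b * y = (a * b) ^ j * a ^ i * t ^ e := by
      rintro _ ⟨j, i, e, rfl⟩
      obtain ⟨j', i', e', h⟩ := ca _ ⟨j + 1, i, e, rfl⟩
      refine ⟨j', i', e', ?_⟩
      rw [← h, pow_succ']
      simp only [← mul_assoc, ha, one_mul]
    have ct : ∀ y : G, (∃ j i e : ℕ, y = (a * b) ^ j * a ^ i * t ^ e) →
        ∃ j i e : ℕ, t * y = (a * b) ^ j * a ^ i * t ^ e := by
      rintro _ ⟨j, i, e, rfl⟩
      have c1 : Commute t a := hat.symm
      have c2 : Commute t b := hbt.symm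
      refine ⟨j, i, e + 1, ?_⟩
      rw [← mul_assoc, (((c1.mul_right c2).pow_right j).mul_right (c1.pow_right i)).eq, pow_succ',
        mul_assoc]
    refine closure_induction_left (p := fun y _ => ∃ j i e : ℕ, y = (a * b) ^ j * a ^ i * t ^ e)
      ⟨0, 0, 0, by simp⟩ ?_ ?_ hd
    · rintro x (rfl | rfl | rfl) y _ hy
      exacts [ca y hy, cb y hy, ct y hy]
    · rintro x (rfl | rfl | rfl) y _ hy
      · rw [inv_eq_of_mul_eq_one_right ha]; exact ca y hy
      · rw [inv_eq_of_mul_eq_one_right hb]; exact cb y hy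
      · rw [inv_eq_of_mul_eq_one_right ht]; exact ct y hy
  obtain ⟨j, i, e, rfl⟩ := key
  refine ⟨(⟨j % 4, by omega⟩, ⟨i % 2, by omega⟩, ⟨e % 2, by omega⟩), ?_⟩
  rw [pow_eq_pow_mod j hab, pow_eq_pow_mod i (show a ^ 2 = 1 by rw [pow_two, ha]),
    pow_eq_pow_mod e (show t ^ 2 = 1 by rw [pow_two, ht])]
  rfl

theorem ga : GaStmt.{u} := by
  intro N _ _ ι π δ Fs R ex lf ⟨a, haR, b, hbR, t, htR, pa, pb, pt, ha, hb, ht, hab, hat, hbt⟩
  let D : Subgroup N := closure {a, b, t}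
  have hDR : D ≤ normalizer (Fs : Set N) := le_trans ((closure_le R).2 (by
    rintro x (rfl | rfl | rfl) <;> assumption)) lf.nF
  have pw : ∀ w, π (wd (a * b) a t w) = dg w := fun w => by
    simp only [wd, dg, map_mul, map_pow, pa, pb, pt]
  have mD : ∀ w, wd (a * b) a t w ∈ D := fun w => by
    have h1 : a ∈ D := subset_closure (by simp)
    have h2 : b ∈ D := subset_closure (by simp)
    have h3 : t ∈ D := subset_closure (by simp)
    exact mul_mem (mul_mem (pow_mem (mul_mem h1 h2) _) (pow_mem h1 _)) (pow_mem h3 _)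
  have dec : ∀ n ∈ Fs ⊔ D, ∃ f ∈ Fs, ∃ w, n = f * wd (a * b) a t w := fun n hn => by
    have : n ∈ (Fs : Set N) * (D : Set N) := by
      rw [← coe_mul_of_right_le_normalizer_left Fs D hDR]; exact hn
    obtain ⟨f, hf, d, hd, rfl⟩ := this
    obtain ⟨w, rfl⟩ := nf ha hb ht hab hat hbt hd
    exact ⟨f, hf, w, rfl⟩
  have hK : (Fs ⊔ D) ⊓ π.ker = ⊥ := by
    refine eq_bot_iff.2 fun n ⟨h1, h2⟩ => ?_
    obtain ⟨f, hf, w, rfl⟩ := dec n h1
    have h3 : π f * dg w = 1 := by rw [← pw, ← map_mul]; exact h2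
    have h4 : lv (dg (0, 0, 0) * (dg w)⁻¹) ∈ L0 := by
      rw [show dg (0, 0, 0) = 1 by simp [dg, wd], one_mul, ← eq_inv_of_mul_eq_one_left h3]
      exact (lf.fim _).1 ⟨f, hf, rfl⟩
    obtain rfl := dg_inj _ _ h4
    have h5 : wd (a * b) a t (0, 0, 0) = 1 := by simp [wd]
    rw [show dg (0, 0, 0) = 1 by simp [dg, wd], mul_one] at h3
    rw [h5, mul_one, lf.finj f hf h3]
    exact one_mem _
  have hT : Nat.card ((Fs ⊔ D).map π) = 1024 := by
    let φ : (Fin 6 → F) × Ix → (Fs ⊔ D).map π := fun p => ⟨lg p.1 * dg p.2, by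
      obtain ⟨f, hf, e⟩ := (lf.fim _).2 (lg_mem p.1)
      exact ⟨f * wd (a * b) a t p.2, mul_mem (mem_sup_left hf) (mem_sup_right (mD _)),
        by rw [map_mul, e, pw]⟩⟩
    have hφ : Function.Bijective φ := by
      constructor
      · rintro ⟨x, w⟩ ⟨x', w'⟩ h
        have h1 : lg x * dg w = lg x' * dg w' := congrArg Subtype.val h
        have h2 : dg w' * (dg w)⁻¹ = (lg x')⁻¹ * lg x := by
          rw [eq_inv_mul_iff_mul_eq, ← mul_assoc, ← h1, mul_inv_cancel_right]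
        obtain rfl := dg_inj w w' (by
          rw [h2, map_mul, map_inv]; exact mul_mem (inv_mem (lg_mem _)) (lg_mem _))
        rw [lg_inj (mul_right_cancel h1)]
      · rintro ⟨_, n, hn, rfl⟩
        obtain ⟨f, hf, w, rfl⟩ := dec n hn
        obtain ⟨x, hx⟩ := eq_lg ((lf.fim _).1 ⟨f, hf, rfl⟩)
        exact ⟨(x, w), Subtype.ext (by
          change lg x * dg w = π (f * _)
          rw [map_mul, hx, pw])⟩
    rw [← Nat.card_eq_of_bijective φ hφ]
    simp
  have hi : (π.ker ⊔ (Fs ⊔ D)).index = 9765 := by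
    rw [sup_comm, ← comap_map_eq, index_comap_of_surjective _ ex.surj]
    have := ((Fs ⊔ D).map π).card_mul_index
    rw [hT, card_sl] at this
    omega
  have : IsMulCommutative π.ker := ⟨⟨fun x y => Subtype.ext (by
    obtain ⟨p, hp, e1⟩ := (ex.ker _).1 x.2
    obtain ⟨q, hq, e2⟩ := (ex.ker _).1 y.2
    change x.1 * y.1 = y.1 * x.1
    rw [e1, e2, ← ex.add p q hp hq, ← ex.add q p hq hp, add_comm])⟩⟩
  have : Fact (Nat.Prime 2) := ⟨Nat.prime_two⟩
  have h2 : IsPGroup 2 π.ker := fun x => ⟨1, Subtype.ext (by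
    obtain ⟨p, hp, e1⟩ := (ex.ker _).1 x.2
    have z : ι 0 = 1 := by
      have := ex.add 0 0 Alt.zero Alt.zero
      rw [add_zero] at this
      exact left_eq_mul.1 this
    change x.1 ^ 2 ^ 1 = 1
    rw [pow_one, pow_two, e1, ← ex.add p p hp hp, add_self_M, z])⟩
  obtain ⟨k, hk⟩ := IsPGroup.iff_card.1 h2
  obtain ⟨H, hH⟩ := H2.gaschutz_exists π.ker (π.ker ⊔ (Fs ⊔ D)) le_sup_left
    (by rw [hk, hi]; exact Nat.Coprime.pow_left k (by norm_num)) (Fs ⊔ D) le_sup_right hK rfl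
  have hb : Function.Bijective (π.comp H.subtype) := by
    constructor
    · rw [injective_iff_map_eq_one]
      intro x hx
      exact Subtype.ext (disjoint_def.1 hH.disjoint hx x.2)
    · intro g
      obtain ⟨n, rfl⟩ := ex.surj g
      obtain ⟨⟨k, h⟩, rfl⟩ := hH.2 n
      exact ⟨h, by
        change π h.1 = π (k.1 * h.1)
        rw [map_mul, show π k.1 = 1 from k.2, one_mul]⟩
  let e := MulEquiv.ofBijective _ hb
  exact ⟨H.subtype.comp e.symm.toMonoidHom, fun g => e.apply_symm_apply g⟩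

end Cfsg.Agent.H21.LpGa
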